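import Mathlib
import Cfsg.Agent.Lib.ZJ.QdChar
import Cfsg.Agent.Lib.ZJ.QdInvolve

/-!
# Overgroups of Sylow subgroups of `Qd(p)` and families of functors controlling fusion
-/

set_option autoImplicit false

namespace CfsgLib.ZJ

open Cfsg Subgroup CfsgLib.Tech CfsgLib.CFun CfsgLib.PLocal Matrix
open scoped commutatorElement MatrixGroups

universe u

variable {p : ℕ} [hp : Fact p.Prime]

theorem le_normalizer_of_ne_top_qd_aux {T H : Subgroup (qd p)} (hT : IsPGroup p T)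
    (hV : (qdLin p).ker ≤ T) (hg : qdMk (upperSL (1 : ZMod p)) 0 ∈ T) (hTH : T ≤ H) (hH : H ≠ ⊤) :
    H ≤ 𝐍(T) := by
  have hup : ∀ M ∈ H, (qdLin p M).1 1 0 = 0 := by
    intro M hM
    by_contra hc
    set A := qdLin p M with hA
    have hu : ∀ t, upperSL t ∈ H.map (qdLin p) := fun t =>
      ⟨_, hTH (qdMk_upperSL_mem hV hg t 0), qdLin_qdMk _ _⟩
    have hd := A.2
    rw [det_fin_two] at hd
    have h1 : upperSL (-A.1 0 0 / A.1 1 0) * A * upperSL 1 =
        lowerSL (-A.1 1 0 ^ 2) * (upperSL (-A.1 0 0 / A.1 1 0) * A) := by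
      apply Subtype.ext
      simp only [Matrix.SpecialLinearGroup.coe_mul, coe_upperSL, coe_lowerSL]
      rw [Matrix.eta_fin_two A.1]
      simp only [Matrix.mul_fin_two]
      ext i j
      fin_cases i <;> fin_cases j <;> simp <;> field_simp
      · ring
      · right; ring
      · linear_combination (-1 : ZMod p) * hd
    have h2 : upperSL (-A.1 0 0 / A.1 1 0) * A ∈ H.map (qdLin p) := mul_mem (hu _) ⟨M, hM, rfl⟩
    have h3 : lowerSL (-A.1 1 0 ^ 2) ∈ H.map (qdLin p) :=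
      (mul_mem_cancel_right h2).1 (h1 ▸ mul_mem h2 (hu 1))
    have h4 : H.map (qdLin p) = ⊤ := by
      rw [eq_top_iff, ← closure_upperSL_lowerSL (p := p) one_ne_zero
        (neg_ne_zero.2 (pow_ne_zero 2 hc)), closure_le]
      rintro _ (rfl | rfl)
      exacts [hu 1, h3]
    refine hH ?_
    rw [← comap_map_eq_self (f := qdLin p) (hV.trans hTH), h4, comap_top]
  intro M hM
  refine mem_normalizer_fintype fun N hN => ?_
  obtain ⟨t, e, rfl⟩ := exists_eq_qdMk_upperSL hT hg hN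
  have h0 := hup M hM
  set A := qdLin p M with hA
  have hd := A.2
  rw [det_fin_two, h0] at hd
  have h1 : A * upperSL t = upperSL (A.1 0 0 ^ 2 * t) * A := by
    apply Subtype.ext
    simp only [Matrix.SpecialLinearGroup.coe_mul, coe_upperSL]
    ext i j
    fin_cases i <;> fin_cases j <;> simp [Matrix.mul_apply, Fin.sum_univ_two, h0]
    linear_combination (-A.1 0 0 * t) * hd
  rw [← comap_map_eq_self (f := qdLin p) hV]
  refine ⟨_, qdMk_upperSL_mem hV hg (A.1 0 0 ^ 2 * t) 0, ?_⟩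
  rw [map_mul, map_mul, map_inv, qdLin_qdMk, qdLin_qdMk, ← hA, h1, mul_inv_cancel_right]

/-- A proper overgroup of a Sylow `p`-subgroup of `Qd(p)` normalizes it. -/
theorem le_normalizer_of_ne_top_qd {X : Type*} [Group X] (e : X ≃* qd p) {T H : Subgroup X}
    (hT : IsSylowIn p T ⊤) (hTH : T ≤ H) (hH : H ≠ ⊤) : H ≤ 𝐍(T) := by
  have : Finite X := Finite.of_equiv _ e.symm.toEquiv
  have hgp : qdMk (upperSL (1 : ZMod p)) 0 ^ p ^ 1 = 1 := by
    rw [pow_one, qdMk_upper_pow, ZMod.natCast_self, upperSL_zero, qdMk_one]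
  obtain ⟨g, -, hg⟩ := (isSylowIn_map_top hT (f := e.toMonoidHom) e.surjective).exists_conj_mem
    (mem_top _) (isPGroup_zpowers_of_pow hgp)
  let e' : X ≃* qd p := e.trans (MulAut.conj g⁻¹)
  have hT' := isSylowIn_map_top hT (f := e'.toMonoidHom) e'.surjective
  have hg' : qdMk (upperSL (1 : ZMod p)) 0 ∈ T.map e'.toMonoidHom := by
    obtain ⟨y, hy, hy'⟩ := hg
    exact ⟨y, hy, by change g⁻¹ * e y * g⁻¹⁻¹ = _; rw [show e y = _ from hy']; group⟩
  have hV : (qdLin p).ker ≤ T.map e'.toMonoidHom :=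
    hT'.le_of_le_normalizer isPGroup_ker_qdLin le_top le_normalizer_of_normal
  have h := le_normalizer_of_ne_top_qd_aux hT'.pgroup hV hg' (map_mono hTH) fun h => hH (by
    rw [← comap_map_eq_self_of_injective (f := e'.toMonoidHom) e'.injective H, h, comap_top])
  intro x hx
  refine mem_normalizer_fintype fun y hy => ?_
  obtain ⟨z, hz, hz'⟩ := (mem_normalizer_iff.1 (h ⟨x, hx, rfl⟩) _).1 ⟨y, hy, rfl⟩
  have : z = x * y * x⁻¹ := e'.injective (by rw [map_mul, map_mul, map_inv]; exact hz')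
  exact this ▸ hz

/-- In `Qd(p)` every nontrivial characteristic subgroup of a Sylow `p`-subgroup `T` has normalizer
`N(T)`. -/
theorem normalizer_eq_of_characteristic_qd {X : Type*} [Group X] (e : X ≃* qd p) {T : Subgroup X}
    (hT : IsSylowIn p T ⊤) {C : Subgroup T} [hC : C.Characteristic] (h1 : C ≠ ⊥) :
    𝐍(C.map T.subtype) = 𝐍(T) := by
  have h2 : 𝐍(T) ≤ 𝐍(C.map T.subtype) := Core.normalizer_le_normalizer_map_subtype_of_characteristic C
  exact le_antisymm (le_normalizer_of_ne_top_qd e hT (le_normalizer.trans h2) fun h =>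
    not_normal_of_characteristic_qd e hT h1 (normalizer_eq_top_iff.1 h)) h2

theorem sylow_ne_bot_qd {X : Type*} [Group X] (e : X ≃* qd p) {T : Subgroup X}
    (hT : IsSylowIn p T ⊤) : T ≠ ⊥ := by
  have : Finite X := Finite.of_equiv _ e.symm.toEquiv
  intro h1
  have h2 := (isSylowIn_map_top hT (f := e.toMonoidHom) e.surjective).le_of_le_normalizer
    isPGroup_ker_qdLin le_top le_normalizer_of_normal
  rw [h1, Subgroup.map_bot, le_bot_iff] at h2
  exact ker_qdLin_ne_bot h2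

theorem normalizer_sylow_ne_top_qd {X : Type*} [Group X] (e : X ≃* qd p) {T : Subgroup X}
    (hT : IsSylowIn p T ⊤) : 𝐍(T) ≠ ⊤ := fun h => by
  have : Nontrivial T := (nontrivial_iff_ne_bot T).2 (sylow_ne_bot_qd e hT)
  refine not_normal_of_characteristic_qd e hT (C := ⊤) top_ne_bot ?_
  rw [← MonoidHom.range_eq_map, range_subtype]
  exact normalizer_eq_top_iff.1 h

/-- No family of characteristic functors controls fusion in `Qd(p)`. -/
theorem not_familyControls_qd {X : Type u} [Group X] (e : X ≃* qd p)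
    {𝓦 : Set (Subgroup X → Subgroup X)}
    (h𝓦 : ∀ W ∈ 𝓦, ∀ T : Subgroup X, IsPGroup p T → T ≠ ⊥ →
      ∃ C : Subgroup T, C.Characteristic ∧ C ≠ ⊥ ∧ C.map T.subtype = W T) :
    ¬ FamilyControlsStrongFusionIn p 𝓦 ⊤ := by
  have : Finite X := Finite.of_equiv _ e.symm.toEquiv
  rintro ⟨T, -, hTp, hTi, h⟩
  have hT : IsSylowIn p T ⊤ := ⟨le_top, hTp, hTi⟩
  have hV : pCore p X ≤ T := hT.le_of_le_normalizer (Core.isPGroup_pCore p _) le_top
    le_normalizer_of_normal
  refine normalizer_sylow_ne_top_qd e hT (eq_top_iff.2 fun g _ => ?_)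
  obtain ⟨n, c, h0, h1, -, h2⟩ := h (pCore p X) g trivial hV (by
    rintro _ ⟨a, ha, rfl⟩
    exact hV (Normal.conj_mem inferInstance a ha g))
  have h3 : ∀ i, c i ∈ 𝐍(T) := by
    intro i
    induction i using Fin.induction with
    | zero => rw [h0]; exact one_mem _
    | succ i ih =>
      obtain ⟨W, hW, hi⟩ := h1 i
      obtain ⟨C, _, hC, hCW⟩ := h𝓦 W hW T hTp (sylow_ne_bot_qd e hT)
      rw [← hCW, normalizer_eq_of_characteristic_qd e hT hC] at hi
      exact (mul_mem_cancel_right (inv_mem ih)).1 hi.2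
  have h4 : g⁻¹ * c (Fin.last n) ∈ pCore p X :=
    Constr.centralizer_pCore_le_equiv e.symm centralizer_pCore_qd_le fun a ha => by
      have := h2 a ha
      calc a * (g⁻¹ * c (Fin.last n)) = g⁻¹ * (g * a * g⁻¹) * c (Fin.last n) := by group
        _ = _ := by rw [← this]; group
  exact (inv_mem_iff).1 ((mul_mem_cancel_right (h3 _)).1 (le_normalizer (hV h4)))

omit hp in
theorem familyControls_mono {X : Type*} [Group X] {𝓦 𝓥 : Set (Subgroup X → Subgroup X)}
    {H : Subgroup X} (h : ∀ W ∈ 𝓦, ∃ V ∈ 𝓥, ∀ T : Subgroup X, IsPGroup p T → W T = V T)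
    (hc : FamilyControlsStrongFusionIn p 𝓦 H) : FamilyControlsStrongFusionIn p 𝓥 H := by
  obtain ⟨T, h1, h2, h3, h4⟩ := hc
  refine ⟨T, h1, h2, h3, fun A g hg hA hA' => ?_⟩
  obtain ⟨n, c, k0, k1, k2, k3⟩ := h4 A g hg hA hA'
  refine ⟨n, c, k0, fun i => ?_, k2, k3⟩
  obtain ⟨W, hW, hi⟩ := k1 i
  obtain ⟨V, hV, e⟩ := h W hW
  exact ⟨V, hV, e T h2 ▸ hi⟩

theorem familyControls_of_controls {X : Type*} [Group X] [Finite X]
    {𝓦 : Set (Subgroup X → Subgroup X)} {W : Subgroup X → Subgroup X} (hW : W ∈ 𝓦) (T : Sylow p X)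
    (h : ∀ A ⊆ ((T : Subgroup X) : Set X), ControlsStrongFusionOf 𝐍(W T) T A) :
    FamilyControlsStrongFusionIn p 𝓦 ⊤ := by
  refine ⟨T, le_top, T.isPGroup', by rw [relIndex_top_right]; exact T.not_dvd_index,
    fun A g _ hA hA' => ?_⟩
  obtain ⟨x, hx, e⟩ := (h A hA).2 g hA'
  refine ⟨1, ![1, x], rfl, fun i => ⟨W, hW, ?_⟩, fun i => ?_, fun a ha => (e a ha).symm⟩
  · fin_cases i
    simpa using hx
  · fin_cases i
    · simpa using hA
    · rintro _ ⟨a, ha, rfl⟩
      exact hA' ⟨a, ha, e a ha⟩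

omit hp in
theorem IsSubFunctor.isCharPFunctor {W : ∀ (X : Type u) [Group X], Subgroup X → Subgroup X}
    (hW : IsSubFunctor p W) : IsCharPFunctor.{u} p fun Q _ => W Q ⊤ :=
  ⟨fun _ _ _ hQ _ => hW.ne_bot (hQ.to_subgroup ⊤) top_ne_bot, fun _ _ _ _ _ hQ φ => by
    rw [hW.map_inj φ.injective (hQ.to_subgroup ⊤), map_top_of_surjective _ φ.surjective]⟩

theorem not_involves_qd_of_family {G : Type u} [Group G] [Finite G]
    {𝓦 : Set (∀ (Q : Type u) [Group Q], Subgroup Q)} (h𝓦 : ∀ W ∈ 𝓦, IsCharPFunctor.{u} p W)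
    (h : ∀ (K R : Subgroup G) [(R.subgroupOf K).Normal], FamilyControlsStrongFusionIn p
      ((fun W => inducedFunctor (G := (K ⧸ R.subgroupOf K)) W) '' 𝓦) ⊤) :
    ¬ Involves (qd p) G := by
  rintro ⟨K, R, _, ⟨e⟩⟩
  refine not_familyControls_qd e ?_ (h K R)
  rintro _ ⟨W, hW, rfl⟩ T hT h0
  have : Nontrivial T := (nontrivial_iff_ne_bot T).2 h0
  exact ⟨W T, characteristic_iff_map_eq.2 fun φ => (h𝓦 W hW).2 T T hT φ,
    (h𝓦 W hW).1 T hT this, rfl⟩

end CfsgLib.ZJ
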